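import Mathlib

set_option autoImplicit false

namespace Cfsg.Agent.Lib.Helper5

theorem eq_of_pow_eq_coprime {G : Type*} [Group G] {x y : G} {i p : ℕ} (h : Nat.Coprime i p)
    (hx : x ^ p = 1) (hy : y ^ p = 1) (hxy : x ^ i = y ^ i) : x = y := by
  have hb := Nat.gcd_eq_gcd_ab i p
  rw [Nat.Coprime.gcd_eq_one h] at hb
  have key : ∀ z : G, z ^ p = 1 → z = (z ^ i) ^ (Nat.gcdA i p) := by
    intro z hz
    have h1 : z = (z ^ i) ^ (Nat.gcdA i p) * (z ^ p) ^ (Nat.gcdB i p) := by
      rw [← zpow_natCast, ← zpow_natCast, ← zpow_mul, ← zpow_mul, ← zpow_add, ← hb]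
      simp
    rw [hz, one_zpow, mul_one] at h1
    exact h1
  rw [key x hx, key y hy, hxy]

theorem hh_core {R : Type*} [Ring R] {p : ℕ} [hp : Fact p.Prime] (hpR : (p : R) = 0)
    (g : Rˣ) (S : Subgroup Rˣ) [Finite S] (hS : (Nat.card S).Coprime p)
    (hn : ∀ b ∈ S, g * b * g⁻¹ ∈ S)
    (hτ : ∀ b ∈ S, ∑ i ∈ Finset.range p, (((b * g : Rˣ) : R)) ^ i = 0) :
    ∀ b ∈ S, b = 1 := by
  classical
  have : Fintype S := Fintype.ofFinite _
  have hpow : ∀ b ∈ S, (b * g) ^ p = 1 := by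
    intro b hb
    have h1 := hτ b hb
    have h2 := mul_geom_sum (((b * g : Rˣ) : R)) p
    rw [h1, mul_zero] at h2
    apply Units.ext
    rw [Units.val_pow_eq_pow_val, Units.val_one]
    exact (sub_eq_zero.mp h2.symm)
  have hconj : ∀ (i : ℕ), ∀ b ∈ S, g ^ i * b * (g ^ i)⁻¹ ∈ S := by
    intro i
    induction i with
    | zero => intro b hb; simpa using hb
    | succ i ih =>
      intro b hb
      have := hn _ (ih b hb)
      convert this using 1
      rw [pow_succ']
      group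
  have hf : ∀ (i : ℕ), ∀ b ∈ S, (b * g) ^ i * (g ^ i)⁻¹ ∈ S := by
    intro i
    induction i with
    | zero => intro b hb; simpa using S.one_mem
    | succ i ih =>
      intro b hb
      have := S.mul_mem (ih b hb) (hconj i b hb)
      convert this using 1
      rw [pow_succ, pow_succ]
      group
  let σ : R := ∑ b : S, ((b : Rˣ) : R)
  have hsum : ∀ i, 0 < i → i < p → ∑ b : S, ((((b : Rˣ) * g : Rˣ) : R)) ^ i = σ * ((g : R)) ^ i := by
    intro i hi0 hip
    let f : S → S := fun b => ⟨((b : Rˣ) * g) ^ i * (g ^ i)⁻¹, hf i b b.2⟩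
    have hinj : Function.Injective f := by
      intro b b' hbb
      have h1 : ((b : Rˣ) * g) ^ i * (g ^ i)⁻¹ = ((b' : Rˣ) * g) ^ i * (g ^ i)⁻¹ :=
        congrArg Subtype.val hbb
      have h2 := mul_right_cancel h1
      have hc : Nat.Coprime i p :=
        (Nat.coprime_comm.mp ((Nat.Prime.coprime_iff_not_dvd hp.out).mpr
          (fun hd => absurd (Nat.le_of_dvd hi0 hd) (by omega))))
      have h3 := eq_of_pow_eq_coprime hc (hpow b b.2) (hpow b' b'.2) h2
      exact Subtype.ext (mul_right_cancel h3)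
    have hbij : Function.Bijective f := Finite.injective_iff_bijective.mp hinj
    have h4 : σ = ∑ b : S, (((f b : S) : Rˣ) : R) :=
      (Function.Bijective.sum_comp hbij (fun b : S => ((b : Rˣ) : R))).symm
    rw [h4, Finset.sum_mul]
    refine Finset.sum_congr rfl ?_
    intro b _
    show _ = (((((b : Rˣ) * g) ^ i * (g ^ i)⁻¹ : Rˣ)) : R) * (g : R) ^ i
    rw [← Units.val_pow_eq_pow_val, ← Units.val_pow_eq_pow_val, ← Units.val_mul,
      inv_mul_cancel_right]
  obtain ⟨k, hk⟩ : ∃ k, p = k + 1 := ⟨p - 1, by have := hp.out.pos; omega⟩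
  have htot : ∑ b : S, ∑ i ∈ Finset.range p, ((((b : Rˣ) * g : Rˣ) : R)) ^ i = 0 :=
    Finset.sum_eq_zero (fun b _ => hτ b b.2)
  rw [Finset.sum_comm, hk, Finset.sum_range_succ'] at htot
  have h1 : ∑ i ∈ Finset.range k, ∑ b : S, ((((b : Rˣ) * g : Rˣ) : R)) ^ (i + 1) =
      σ * ∑ i ∈ Finset.range k, (g : R) ^ (i + 1) := by
    rw [Finset.mul_sum]
    refine Finset.sum_congr rfl ?_
    intro i hi
    exact hsum (i + 1) (Nat.succ_pos i) (by have := Finset.mem_range.mp hi; omega)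
  have h2 := hτ 1 S.one_mem
  rw [one_mul, hk, Finset.sum_range_succ', pow_zero] at h2
  have h3 : ∑ i ∈ Finset.range k, (g : R) ^ (i + 1) = -1 := eq_neg_of_add_eq_zero_left h2
  rw [h1, h3] at htot
  simp only [pow_zero, Finset.sum_const, Finset.card_univ, nsmul_eq_mul, mul_one, mul_neg] at htot
  have hσ : σ = (Fintype.card S : R) := by
    have := neg_add_eq_zero.mp htot
    exact this
  have hcop : ∃ a : R, (Fintype.card S : R) * a = 1 := by
    have hb := Nat.gcd_eq_gcd_ab (Nat.card S) p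
    rw [Nat.Coprime.gcd_eq_one hS, Nat.card_eq_fintype_card] at hb
    refine ⟨((Nat.gcdA (Fintype.card S) p : ℤ) : R), ?_⟩
    have := congrArg (fun z : ℤ => (z : R)) hb
    simp only [Int.cast_add, Int.cast_mul, Int.cast_natCast, hpR, zero_mul, add_zero,
      Nat.cast_one, Int.cast_one] at this
    exact this.symm
  obtain ⟨a, ha⟩ := hcop
  intro b hb
  have h5 : ((b : Rˣ) : R) * σ = σ := by
    show ((b : Rˣ) : R) * ∑ c : S, ((c : Rˣ) : R) = ∑ c : S, ((c : Rˣ) : R)
    rw [Finset.mul_sum]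
    exact (Equiv.sum_comp (Equiv.mulLeft (⟨b, hb⟩ : S)) (fun c : S => ((c : Rˣ) : R)))
  rw [hσ] at h5
  apply Units.ext
  have h6 := congrArg (fun z => z * a) h5
  simp only [mul_assoc, ha, mul_one] at h6
  rw [h6, Units.val_one]

end Cfsg.Agent.Lib.Helper5
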