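import Mathlib
import Cfsg.Agent.Lib.Helper5.HH1
import Cfsg.Agent.Lib.Helper13.NormSum

set_option autoImplicit false

namespace Cfsg.Agent.Lib.Helper5

open Polynomial in
theorem geom_sum_zero_of_nilp {R : Type*} [Ring R] {p : ℕ} [hp : Fact p.Prime] (hpR : (p : R) = 0)
    (x : R) (hx : (x - 1) ^ (p - 1) = 0) : ∑ i ∈ Finset.range p, x ^ i = 0 := by
  obtain ⟨h, hh⟩ := Cfsg.Agent.Lib.Helper13.geom_sum_eq_mod_p p
  have h1 := congrArg (fun q => aeval x q) hh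
  simp only [map_sum, map_pow, aeval_X, map_add, map_sub, map_one, map_mul, aeval_C] at h1
  rw [h1, hx, zero_add]
  have : (algebraMap ℤ R) (p : ℤ) = 0 := by
    simpa using hpR
  rw [this, zero_mul]

theorem hh_abstract {Z M : Type*} [Group Z] [Finite Z] [CommGroup M] {p : ℕ} [hp : Fact p.Prime]
    (hexp : ∀ m : M, m ^ p = 1) (φ : Z →* MulAut M) (g : Z)
    (hg : ∀ m : M, (fun m => φ g m / m)^[p - 1] m = 1)
    (N : Subgroup Z) (hgN : ∀ y ∈ N, g * y * g⁻¹ ∈ N)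
    (hab : ∀ y ∈ N, ∀ y' ∈ N, φ y * φ y' = φ y' * φ y)
    (m₀ : ℕ) (hm₀ : m₀.Coprime p) (hNm : ∀ y ∈ N, φ (y ^ m₀) = 1) :
    ∀ y ∈ N, φ (y * g * y⁻¹ * g⁻¹) = 1 := by
  classical
  let R := AddMonoid.End (Additive M)
  let ρ₀ : Z →* R :=
    { toFun := fun z => MonoidHom.toAdditive (φ z).toMonoidHom
      map_one' := by
        ext m
        show Additive.ofMul (φ 1 (Additive.toMul m)) = m
        rw [map_one]; rfl
      map_mul' := by
        intro a b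
        ext m
        show Additive.ofMul (φ (a * b) (Additive.toMul m)) =
          Additive.ofMul (φ a (φ b (Additive.toMul m)))
        rw [map_mul]; rfl }
  have hρ₀ : ∀ (z : Z) (m : M), ρ₀ z (Additive.ofMul m) = Additive.ofMul (φ z m) := fun z m => rfl
  have hker : ∀ z : Z, ρ₀ z = 1 → φ z = 1 := by
    intro z hz
    ext m
    have := congrArg (fun f : R => f (Additive.ofMul m)) hz
    exact this
  have hker' : ∀ z : Z, φ z = 1 → ρ₀ z = 1 := by
    intro z hz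
    ext m
    show Additive.ofMul (φ z (Additive.toMul m)) = m
    rw [hz]; rfl
  let ρ : Z →* Rˣ := ρ₀.toHomUnits
  have hρ : ∀ z, ((ρ z : Rˣ) : R) = ρ₀ z := fun z => rfl
  have hpR : (p : R) = 0 := by
    ext m
    rw [AddMonoid.End.natCast_apply]
    show Additive.ofMul ((Additive.toMul m) ^ p) = 0
    rw [hexp]; rfl
  have hit : ∀ (k : ℕ) (m : M), ((ρ₀ g - 1) ^ k) (Additive.ofMul m) =
      Additive.ofMul ((fun m => φ g m / m)^[k] m) := by
    intro k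
    induction k with
    | zero => intro m; rw [pow_zero]; rfl
    | succ k ih =>
      intro m
      rw [pow_succ', Function.iterate_succ_apply']
      show (ρ₀ g - 1) (((ρ₀ g - 1) ^ k) (Additive.ofMul m)) = _
      rw [ih]
      rfl
  have hnil : (ρ₀ g - 1) ^ (p - 1) = 0 := by
    ext m
    have := hit (p - 1) (Additive.toMul m)
    rw [hg] at this
    exact this
  have hτg : ∑ i ∈ Finset.range p, (ρ₀ g) ^ i = 0 := geom_sum_zero_of_nilp hpR _ hnil
  have hcomm : ∀ y ∈ N, ∀ y' ∈ N, ρ y * ρ y' = ρ y' * ρ y := by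
    intro y hy y' hy'
    apply Units.ext
    rw [Units.val_mul, Units.val_mul, hρ, hρ, ← map_mul, ← map_mul]
    ext m
    show Additive.ofMul (φ (y * y') (Additive.toMul m)) = Additive.ofMul (φ (y' * y) (Additive.toMul m))
    rw [map_mul, map_mul, hab y hy y' hy']
  have hginv : ∀ y ∈ N, g * y⁻¹ * g⁻¹ ∈ N := fun y hy => hgN _ (N.inv_mem hy)
  have hc : ∀ y : Z, ρ (y * g * y⁻¹ * g⁻¹) = ρ y * ρ (g * y⁻¹ * g⁻¹) := by
    intro y
    rw [← map_mul]
    congr 1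
    group
  let S : Subgroup Rˣ :=
    { carrier := {s | ∃ y ∈ N, s = ρ (y * g * y⁻¹ * g⁻¹)}
      one_mem' := ⟨1, N.one_mem, by simp⟩
      mul_mem' := by
        rintro _ _ ⟨y, hy, rfl⟩ ⟨y', hy', rfl⟩
        refine ⟨y * y', N.mul_mem hy hy', ?_⟩
        rw [hc, hc, hc]
        have e : g * (y * y')⁻¹ * g⁻¹ = (g * y'⁻¹ * g⁻¹) * (g * y⁻¹ * g⁻¹) := by group
        rw [e, map_mul ρ y y', map_mul ρ (g * y'⁻¹ * g⁻¹) (g * y⁻¹ * g⁻¹)]
        have c1 := hcomm _ (hginv y hy) _ hy'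
        have c2 := hcomm _ (hginv y hy) _ (hginv y' hy')
        calc ρ y * ρ (g * y⁻¹ * g⁻¹) * (ρ y' * ρ (g * y'⁻¹ * g⁻¹))
            = ρ y * (ρ (g * y⁻¹ * g⁻¹) * ρ y') * ρ (g * y'⁻¹ * g⁻¹) := by simp only [mul_assoc]
          _ = ρ y * (ρ y' * ρ (g * y⁻¹ * g⁻¹)) * ρ (g * y'⁻¹ * g⁻¹) := by rw [c1]
          _ = ρ y * ρ y' * (ρ (g * y⁻¹ * g⁻¹) * ρ (g * y'⁻¹ * g⁻¹)) := by simp only [mul_assoc]
          _ = ρ y * ρ y' * (ρ (g * y'⁻¹ * g⁻¹) * ρ (g * y⁻¹ * g⁻¹)) := by rw [c2]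
      inv_mem' := by
        rintro _ ⟨y, hy, rfl⟩
        refine ⟨y⁻¹, N.inv_mem hy, ?_⟩
        rw [hc, hc, mul_inv_rev, ← map_inv, ← map_inv]
        have e : (g * y⁻¹ * g⁻¹)⁻¹ = g * y⁻¹⁻¹ * g⁻¹ := by group
        rw [e]
        exact hcomm _ (hginv _ (N.inv_mem hy)) _ (N.inv_mem hy) }
  have hSmem : ∀ s, s ∈ S ↔ ∃ y ∈ N, s = ρ (y * g * y⁻¹ * g⁻¹) := fun s => Iff.rfl
  have hSfin : Finite S := by
    have : (S : Set Rˣ) ⊆ Set.range ρ := by
      rintro _ ⟨y, _, rfl⟩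
      exact ⟨_, rfl⟩
    exact Set.Finite.subset (Set.finite_range ρ) this
  have hScop : (Nat.card S).Coprime p := by
    rw [Nat.coprime_comm, Nat.Prime.coprime_iff_not_dvd hp.out]
    intro hd
    obtain ⟨s, hs⟩ := exists_prime_orderOf_dvd_card' (G := S) p hd
    obtain ⟨y, hy, hsy⟩ := (hSmem _).mp s.2
    have hw : y * g * y⁻¹ * g⁻¹ ∈ N := by
      have := N.mul_mem hy (hginv y hy)
      convert this using 1
      group
    have h1 : (s : Rˣ) ^ m₀ = 1 := by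
      rw [hsy, ← map_pow]
      apply Units.ext
      rw [hρ, hker' _ (hNm _ hw)]
      rfl
    have h2 : s ^ m₀ = 1 := Subtype.ext h1
    have h3 := orderOf_dvd_of_pow_eq_one h2
    rw [hs] at h3
    exact (Nat.Prime.coprime_iff_not_dvd hp.out).mp (Nat.coprime_comm.mp hm₀) h3
  have hmain := hh_core hpR (ρ g) S hScop
    (by
      rintro _ ⟨y, hy, rfl⟩
      refine ⟨g * y * g⁻¹, hgN y hy, ?_⟩
      rw [← map_inv, ← map_mul, ← map_mul]
      congr 1
      group)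
    (by
      rintro _ ⟨y, hy, rfl⟩
      have e : ρ (y * g * y⁻¹ * g⁻¹) * ρ g = ρ y * ρ g * (ρ y)⁻¹ := by
        rw [← map_inv, ← map_mul, ← map_mul, ← map_mul]
        congr 1
        group
      rw [e]
      have e2 : ∀ i : ℕ, (((ρ y * ρ g * (ρ y)⁻¹ : Rˣ)) : R) ^ i =
          ((ρ y : Rˣ) : R) * (ρ₀ g) ^ i * (((ρ y)⁻¹ : Rˣ) : R) := by
        intro i
        rw [← Units.val_pow_eq_pow_val, conj_pow, Units.val_mul, Units.val_mul,
          Units.val_pow_eq_pow_val, hρ g]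
      simp only [e2]
      rw [← Finset.sum_mul, ← Finset.mul_sum, hτg, mul_zero, zero_mul])
  intro y hy
  apply hker
  have := hmain _ ((hSmem _).mpr ⟨y, hy, rfl⟩)
  have h2 := congrArg (fun u : Rˣ => (u : R)) this
  exact h2

end Cfsg.Agent.Lib.Helper5
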