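import Mathlib
import Cfsg.Agent.Lib.Helper5.HH2
import Cfsg.Agent.Lib.Helper13.ChiefHom
import Cfsg.Agent.Lib.Helper13.SecTransferMin

set_option autoImplicit false

namespace Cfsg.Agent.Lib.Helper5

open Cfsg.Agent.Lib.Helper13
open scoped commutatorElement

def CenOn {Z : Type*} [Group Z] (U V : Subgroup Z) (x : Z) : Prop :=
  ∀ u ∈ U, x * u * x⁻¹ * u⁻¹ ∈ V

theorem hh_chief {Z : Type*} [Group Z] [Finite Z] {p : ℕ} [hp : Fact p.Prime] {U V : Subgroup Z}
    (hch : Cfsg.IsChiefFactor U V) (hUp : IsPGroup p U) (g : Z)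
    (hit : Cfsg.iterCommutator U (Subgroup.zpowers g) (p - 1) ≤ V)
    (N : Subgroup Z) (hgN : ∀ y ∈ N, g * y * g⁻¹ ∈ N)
    (hab : ∀ y ∈ N, ∀ y' ∈ N, CenOn U V (y * y' * y⁻¹ * y'⁻¹))
    (m₀ : ℕ) (hm₀ : m₀.Coprime p) (hNm : ∀ y ∈ N, CenOn U V (y ^ m₀)) :
    ∀ y ∈ N, CenOn U V (y * g * y⁻¹ * g⁻¹) := by
  classical
  have hUn : U.Normal := hch.2.1
  have hVn : V.Normal := hch.2.2.1
  have hUU : ⁅U, U⁆ ≤ V := chief_central hch hUp le_rfl
  have hexp := pow_mem_of_chief hch hUp hUU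
  let mk : Z →* Z ⧸ V := QuotientGroup.mk' V
  have hmk : ∀ x : Z, mk x = 1 ↔ x ∈ V := fun x => QuotientGroup.eq_one_iff x
  let Ub : Subgroup (Z ⧸ V) := U.map mk
  have hUbn : Ub.Normal := hUn.map mk (QuotientGroup.mk'_surjective V)
  letI : CommGroup ↥Ub :=
    { (inferInstance : Group ↥Ub) with
      mul_comm := by
        rintro ⟨_, a, ha, rfl⟩ ⟨_, b, hb, rfl⟩
        apply Subtype.ext
        show mk a * mk b = mk b * mk a
        have h1 : ⁅a, b⁆ ∈ V := hUU (Subgroup.commutator_mem_commutator ha hb)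
        rw [← hmk, commutatorElement_def, map_mul, map_mul, map_mul, map_inv, map_inv] at h1
        calc mk a * mk b = (mk a * mk b * (mk a)⁻¹ * (mk b)⁻¹) * (mk b * mk a) := by group
          _ = mk b * mk a := by rw [h1, one_mul] }
  let φ : Z →* MulAut ↥Ub := (MulAut.conjNormal (H := Ub)).comp mk
  have hφ : ∀ (x : Z) (m : ↥Ub), ((φ x m : ↥Ub) : Z ⧸ V) = mk x * m * (mk x)⁻¹ := fun x m =>
    MulAut.conjNormal_apply (mk x) m
  have hφ1 : ∀ x : Z, CenOn U V x → φ x = 1 := by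
    intro x hx
    ext ⟨_, u, hu, rfl⟩
    rw [hφ]
    show mk x * mk u * (mk x)⁻¹ = mk u
    have h1 := (hmk _).mpr (hx u hu)
    rw [map_mul, map_mul, map_mul, map_inv, map_inv] at h1
    exact mul_inv_eq_one.mp h1
  have hφ2 : ∀ x : Z, φ x = 1 → CenOn U V x := by
    intro x hx u hu
    have h1 := hφ x ⟨mk u, u, hu, rfl⟩
    rw [hx] at h1
    rw [← hmk, map_mul, map_mul, map_mul, map_inv, map_inv]
    exact mul_inv_eq_one.mpr h1.symm
  have hmain := hh_abstract (p := p) (M := ↥Ub)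
    (by
      rintro ⟨_, u, hu, rfl⟩
      apply Subtype.ext
      show (mk u) ^ p = 1
      rw [← map_pow, hmk]
      exact hexp u hu) φ g
    (by
      have key : ∀ (k : ℕ) (m : ↥Ub), (((fun m : ↥Ub => φ g m / m)^[k] m : ↥Ub) : Z ⧸ V) ∈
          (Cfsg.iterCommutator U (Subgroup.zpowers g) k).map mk := by
        intro k
        induction k with
        | zero => intro m; exact m.2
        | succ k ih =>
          intro m
          rw [Function.iterate_succ_apply']
          obtain ⟨w, hw, hwe⟩ := ih m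
          refine ⟨⁅w, g⁆⁻¹, Subgroup.inv_mem _ (Subgroup.commutator_mem_commutator hw
            (Subgroup.mem_zpowers g)), ?_⟩
          show _ = ((φ g _ : ↥Ub) : Z ⧸ V) / _
          rw [hφ, ← hwe, commutatorElement_def, div_eq_mul_inv, ← map_inv, ← map_inv, ← map_mul,
            ← map_mul, ← map_mul]
          congr 1
          group
      intro m
      apply Subtype.ext
      obtain ⟨w, hw, hwe⟩ := key (p - 1) m
      rw [← hwe]
      exact (hmk w).mpr (hit hw))
    N hgN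
    (by
      intro y hy y' hy'
      have h1 := hφ1 _ (hab y hy y' hy')
      rw [map_mul, map_mul, map_mul, map_inv, map_inv] at h1
      calc φ y * φ y' = (φ y * φ y' * (φ y)⁻¹ * (φ y')⁻¹) * (φ y' * φ y) := by group
        _ = φ y' * φ y := by rw [h1, one_mul])
    m₀ hm₀ (fun y hy => hφ1 _ (hNm y hy))
  intro y hy
  exact hφ2 _ (hmain y hy)

end Cfsg.Agent.Lib.Helper5
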