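import Mathlib
import Cfsg.Agent.Lib.Helper5.HH3
import Cfsg.Agent.Lib.Helper17.Core
import Cfsg.Agent.Lib.Helper1.Coprime
import Cfsg.Agent.Lib.Helper1.CoprimeSylow

set_option autoImplicit false

namespace Cfsg.Agent.Lib.Helper5

open Cfsg.Agent.Lib.Helper13 Cfsg.Agent.Lib.Helper17 Cfsg.Agent.Lib.Helper1
open scoped commutatorElement

theorem mem_cen_iff {Z : Type*} [Group Z] (U V : Subgroup Z) [V.Normal] (x : Z) :
    x ∈ cen U V ↔ CenOn U V x := by
  unfold cen CenOn
  rw [Subgroup.mem_comap, Subgroup.mem_centralizer_iff]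
  constructor
  · intro h u hu
    have h1 := h (QuotientGroup.mk' V u) ⟨u, hu, rfl⟩
    rw [← QuotientGroup.eq_one_iff]
    show (QuotientGroup.mk' V) (x * u * x⁻¹ * u⁻¹) = 1
    rw [map_mul, map_mul, map_mul, map_inv, map_inv, ← h1]
    group
  · rintro h _ ⟨u, hu, rfl⟩
    have h1 := (QuotientGroup.eq_one_iff _).mpr (h u hu)
    change (QuotientGroup.mk' V) (x * u * x⁻¹ * u⁻¹) = 1 at h1
    rw [map_mul, map_mul, map_mul, map_inv, map_inv] at h1
    have h2 := mul_inv_eq_one.mp h1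
    have h3 := mul_inv_eq_iff_eq_mul.mp h2
    exact h3.symm

/-- structure of a group whose Sylow `p`-subgroup is maximal and `Z/O_p(Z)` has a normal
`p`-complement -/
theorem coatom_structure {Z : Type*} [Group Z] [Finite Z] {p : ℕ} [hp : Fact p.Prime]
    (hNC : Cfsg.HasNormalPComplement p (Z ⧸ Cfsg.pCore p Z)) (T : Sylow p Z)
    (hT : IsCoatom (T : Subgroup Z)) :
    ∃ (N : Subgroup Z) (m₀ : ℕ), N.Normal ∧ Cfsg.pCore p Z ≤ N ∧ m₀.Coprime p ∧
      (∀ y ∈ N, y ^ m₀ ∈ Cfsg.pCore p Z) ∧ (T : Subgroup Z) ⊔ N = ⊤ ∧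
      (∀ L : Subgroup Z, Cfsg.pCore p Z ≤ L → L ≤ N → (T : Subgroup Z) ≤ Subgroup.normalizer (L : Set Z) →
        L ≤ Cfsg.pCore p Z ∨ L = N) ∧ ⁅N, N⁆ ≤ Cfsg.pCore p Z := by
  classical
  obtain ⟨P, hPdef⟩ : ∃ P, P = Cfsg.pCore p Z := ⟨_, rfl⟩
  have hPn : (Cfsg.pCore p Z).Normal := inferInstance
  have hPp : IsPGroup p (Cfsg.pCore p Z) := pCore_isPGroup
  have hPT : Cfsg.pCore p Z ≤ T := pCore_le_sylow T
  obtain ⟨Pb, Kb, hKn, hKc⟩ := hNC
  let mk : Z →* Z ⧸ Cfsg.pCore p Z := QuotientGroup.mk' (Cfsg.pCore p Z)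
  have hsurj : Function.Surjective mk := QuotientGroup.mk'_surjective _
  have hmk : ∀ x : Z, mk x = 1 ↔ x ∈ Cfsg.pCore p Z := fun x => QuotientGroup.eq_one_iff x
  let N : Subgroup Z := Kb.comap mk
  have hNn : N.Normal := hKn.comap mk
  have hPN : Cfsg.pCore p Z ≤ N := by
    intro x hx
    show mk x ∈ Kb
    rw [(hmk x).mpr hx]; exact Kb.one_mem
  have hm₀ : (Nat.card Kb).Coprime p := by
    rw [Nat.coprime_comm, Nat.Prime.coprime_iff_not_dvd hp.out, ← hKc.index_eq_card]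
    exact Pb.not_dvd_index
  have hNm : ∀ y ∈ N, y ^ (Nat.card Kb) ∈ Cfsg.pCore p Z := by
    intro y hy
    rw [← hmk, map_pow]
    have := pow_card_eq_one' (G := Kb) (x := ⟨mk y, hy⟩)
    exact congrArg Subtype.val this
  have hNT : N ⊓ T ≤ Cfsg.pCore p Z := by
    rintro x ⟨hxN, hxT⟩
    obtain ⟨k, hk⟩ := T.2 ⟨x, hxT⟩
    have hk' : x ^ (p ^ k) = 1 := congrArg Subtype.val hk
    have h1 : orderOf (mk x) ∣ p ^ k := orderOf_dvd_of_pow_eq_one (by rw [← map_pow, hk', map_one])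
    have h2 : orderOf (mk x) ∣ Nat.card Kb :=
      orderOf_dvd_of_pow_eq_one (by rw [← map_pow]; exact (hmk _).mpr (hNm x hxN))
    have h3 : (p ^ k).Coprime (Nat.card Kb) := Nat.Coprime.pow_left k (Nat.coprime_comm.mp hm₀)
    have h4 := Nat.Coprime.eq_one_of_dvd (Nat.Coprime.coprime_dvd_left h1 h3) h2
    exact (hmk x).mp (orderOf_eq_one_iff.mp h4)
  have hsup : (T : Subgroup Z) ⊔ N = ⊤ := by
    rw [← Subgroup.index_eq_one]
    have h1 : ((T : Subgroup Z) ⊔ N).index ∣ N.index := Subgroup.index_dvd_of_le le_sup_right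
    have h2 : ((T : Subgroup Z) ⊔ N).index ∣ (T : Subgroup Z).index :=
      Subgroup.index_dvd_of_le le_sup_left
    have h3 : N.index = Nat.card Pb := by
      rw [Subgroup.index_comap_of_surjective Kb hsurj, hKc.symm.index_eq_card]
    obtain ⟨n, hn⟩ := IsPGroup.iff_card.mp Pb.2
    rw [h3, hn] at h1
    obtain ⟨j, -, hj⟩ := (Nat.dvd_prime_pow hp.out).mp h1
    rcases Nat.eq_zero_or_pos j with rfl | hj0
    · simpa using hj
    · exfalso
      apply T.not_dvd_index
      refine dvd_trans ?_ h2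
      rw [hj]
      exact dvd_pow_self p hj0.ne'
  have dich : ∀ L : Subgroup Z, Cfsg.pCore p Z ≤ L → L ≤ N →
      (T : Subgroup Z) ≤ Subgroup.normalizer (L : Set Z) → L ≤ Cfsg.pCore p Z ∨ L = N := by
    intro L hPL hLN hTL
    rcases hT.le_iff.mp (le_sup_left : (T : Subgroup Z) ≤ (T : Subgroup Z) ⊔ L) with h | h
    · right
      have hLn : L.Normal := by
        rw [← Subgroup.normalizer_eq_top_iff, eq_top_iff, ← h]
        exact sup_le hTL Subgroup.le_normalizer
      refine le_antisymm hLN ?_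
      intro n hn
      have hn' : n ∈ (T : Subgroup Z) ⊔ L := h ▸ Subgroup.mem_top n
      obtain ⟨t, ht, l, hl, rfl⟩ := Subgroup.mem_sup_of_normal_right.mp hn'
      have htN : t ∈ N := by
        have := N.mul_mem hn (N.inv_mem (hLN hl))
        rwa [mul_inv_cancel_right] at this
      exact L.mul_mem (hPL (hNT ⟨htN, ht⟩)) hl
    · left
      have hLT : L ≤ T := le_sup_right.trans_eq h
      exact (le_inf hLN hLT).trans hNT
  refine ⟨N, Nat.card Kb, hNn, hPN, hm₀, hNm, hsup, dich, ?_⟩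
  by_cases hKb : Kb = ⊥
  · refine (Subgroup.commutator_le_left N N).trans ?_
    intro x hx
    have : mk x ∈ Kb := hx
    rw [hKb, Subgroup.mem_bot] at this
    exact (hmk x).mp this
  · have hcard : Nat.card Kb ≠ 1 := by
      intro h
      exact hKb (Subgroup.card_eq_one.mp h)
    have hq : Fact (Nat.card Kb).minFac.Prime := ⟨Nat.minFac_prime hcard⟩
    obtain ⟨q, hqdef⟩ : ∃ q, q = (Nat.card Kb).minFac := ⟨_, rfl⟩
    rw [← hqdef] at hq
    have hqd : q ∣ Nat.card Kb := hqdef ▸ Nat.minFac_dvd _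
    let Tb : Subgroup (Z ⧸ Cfsg.pCore p Z) := (T : Subgroup Z).map mk
    have hTbp : IsPGroup p Tb := T.2.map mk
    have hcop : (Nat.card Tb).Coprime (Nat.card Kb) := by
      obtain ⟨j, hj⟩ := IsPGroup.iff_card.mp hTbp
      rw [hj]
      exact Nat.Coprime.pow_left j (Nat.coprime_comm.mp hm₀)
    have hsolv : Group.IsSolvable Tb := by
      have := hTbp.isNilpotent
      infer_instance
    obtain ⟨⟨Y, hY⟩, -⟩ := invariant_sylow Tb Kb (le_normalizer_of_normal _ _) hcop (Or.inl hsolv) q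
    obtain ⟨Yb, hYb⟩ : ∃ Yb, Yb = (Y : Subgroup Kb).map Kb.subtype := ⟨_, rfl⟩
    rw [← hYb] at hY
    have hYK : Yb ≤ Kb := hYb ▸ Subgroup.map_subtype_le _
    have hYq : IsPGroup q Yb := hYb ▸ Y.2.map _
    have hTL : (T : Subgroup Z) ≤ Subgroup.normalizer ((Yb.comap mk : Subgroup Z) : Set Z) := by
      intro t ht
      have h1 : mk t ∈ Subgroup.normalizer (Yb : Set (Z ⧸ Cfsg.pCore p Z)) :=
        hY (Subgroup.mem_map_of_mem mk ht)
      rw [Subgroup.mem_normalizer_iff] at h1 ⊢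
      intro x
      have := h1 (mk x)
      simpa [Subgroup.mem_comap] using this
    have hPL : ∀ A : Subgroup (Z ⧸ Cfsg.pCore p Z), Cfsg.pCore p Z ≤ A.comap mk := by
      intro A x hx
      show mk x ∈ A
      rw [(hmk x).mpr hx]; exact A.one_mem
    rcases dich (Yb.comap mk) (hPL _) (Subgroup.comap_mono hYK) hTL with h | h
    · exfalso
      have h1 : Yb = ⊥ := by
        rw [eq_bot_iff]
        intro y hy
        obtain ⟨x, rfl⟩ := hsurj y
        exact (hmk x).mpr (h hy)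
      rw [hYb, Subgroup.map_eq_bot_iff_of_injective _ Kb.subtype_injective] at h1
      exact Y.ne_bot_of_dvd_card hqd h1
    · have hKY : Kb ≤ Yb := by
        intro k hk
        obtain ⟨x, rfl⟩ := hsurj k
        have : x ∈ Yb.comap mk := h ▸ (show x ∈ N from hk)
        exact this
      have hKq : IsPGroup q Kb := hYq.to_le hKY
      have hlt := commutator_lt_of_isPGroup hKq hKq Subgroup.le_normalizer hKb
      have hn' : (⁅Kb, Kb⁆.comap mk).Normal := Subgroup.Normal.comap inferInstance mk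
      rcases dich (⁅Kb, Kb⁆.comap mk) (hPL _) (Subgroup.comap_mono hlt.le)
        (le_normalizer_of_normal _ _) with h' | h'
      · refine le_trans ?_ h'
        rw [Subgroup.commutator_le]
        intro a ha b hb
        show mk ⁅a, b⁆ ∈ ⁅Kb, Kb⁆
        rw [map_commutatorElement]
        exact Subgroup.commutator_mem_commutator ha hb
      · exfalso
        apply hlt.not_ge
        intro k hk
        obtain ⟨x, rfl⟩ := hsurj k
        have : x ∈ ⁅Kb, Kb⁆.comap mk := h' ▸ (show x ∈ N from hk)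
        exact this

end Cfsg.Agent.Lib.Helper5
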