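import Mathlib
import Cfsg.Agent.Lib.Helper5.HH4

set_option autoImplicit false

namespace Cfsg.Agent.Lib.Helper5

open Cfsg.Agent.Lib.Helper13 Cfsg.Agent.Lib.Helper17 Cfsg.Agent.Lib.Helper1
open scoped commutatorElement

theorem no_small_action {Z : Type*} [Group Z] [Finite Z] {p : ℕ} [hp : Fact p.Prime]
    (hNC : Cfsg.HasNormalPComplement p (Z ⧸ Cfsg.pCore p Z)) (T : Sylow p Z)
    (hT : IsCoatom (T : Subgroup Z)) (g : Z) (hgT : g ∈ (T : Subgroup Z))
    (hgP : g ∉ Cfsg.pCore p Z) (U V : Subgroup Z) (hch : Cfsg.IsChiefFactor U V)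
    (hUP : U ≤ Cfsg.pCore p Z)
    (hit : Cfsg.iterCommutator U (Subgroup.zpowers g) (p - 1) ≤ V) :
    ⁅U, Subgroup.zpowers g⁆ ≤ V := by
  classical
  obtain ⟨N, m₀, hNn, hPN, hm₀, hNm, hsup, dich, hNN⟩ := coatom_structure hNC T hT
  have hPn : (Cfsg.pCore p Z).Normal := inferInstance
  have hPp : IsPGroup p (Cfsg.pCore p Z) := pCore_isPGroup
  have hPT : Cfsg.pCore p Z ≤ T := pCore_le_sylow T
  have hUn : U.Normal := hch.2.1
  have hVn : V.Normal := hch.2.2.1
  have hUp : IsPGroup p U := hPp.to_le hUP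
  have hPcen : Cfsg.pCore p Z ≤ cen U V := (le_cen_iff U V _).mpr (chief_central hch hPp hUP)
  rcases dich (cen U V ⊓ N) (le_inf hPcen hPN) inf_le_right (le_normalizer_of_normal _ _) with hD | hD
  · exfalso
    have h1 := hh_chief hch hUp g hit N (fun y hy => hNn.conj_mem y hy g)
      (fun y hy y' hy' => (mem_cen_iff U V _).mp (hPcen (hNN (by
        have := Subgroup.commutator_mem_commutator hy hy'
        rwa [commutatorElement_def] at this))))
      m₀ hm₀ (fun y hy => (mem_cen_iff U V _).mp (hPcen (hNm y hy)))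
    have h2 : ∀ y ∈ N, y * g * y⁻¹ * g⁻¹ ∈ Cfsg.pCore p Z := by
      intro y hy
      refine hD ⟨(mem_cen_iff U V _).mpr (h1 y hy), ?_⟩
      show y * g * y⁻¹ * g⁻¹ ∈ N
      have := N.mul_mem hy (hNn.conj_mem _ (N.inv_mem hy) g)
      convert this using 1
      group
    have hgc : g ∈ cen N (Cfsg.pCore p Z) := by
      rw [mem_cen_iff]
      intro y hy
      have := (Cfsg.pCore p Z).inv_mem (h2 y hy)
      convert this using 1
      group
    have hXn : ((T : Subgroup Z) ⊓ cen N (Cfsg.pCore p Z)).Normal := by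
      refine ⟨fun x hx z => ?_⟩
      have hz : z ∈ (T : Subgroup Z) ⊔ N := hsup ▸ Subgroup.mem_top z
      rw [sup_comm] at hz
      obtain ⟨n, hn, t, ht, rfl⟩ := Subgroup.mem_sup_of_normal_left.mp hz
      have hcn : (cen N (Cfsg.pCore p Z)).Normal := inferInstance
      refine ⟨?_, hcn.conj_mem x hx.2 _⟩
      show n * t * x * (n * t)⁻¹ ∈ (T : Subgroup Z)
      have hx'T : t * x * t⁻¹ ∈ (T : Subgroup Z) :=
        (T : Subgroup Z).mul_mem ((T : Subgroup Z).mul_mem ht hx.1) ((T : Subgroup Z).inv_mem ht)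
      have hx'c : t * x * t⁻¹ ∈ cen N (Cfsg.pCore p Z) := hcn.conj_mem x hx.2 t
      have h3 := (mem_cen_iff N _ _).mp hx'c n hn
      have h4 := (T : Subgroup Z).mul_mem (hPT ((Cfsg.pCore p Z).inv_mem h3)) hx'T
      convert h4 using 1
      group
    exact hgP (le_pCore hXn (T.2.to_le inf_le_left) ⟨hgT, hgc⟩)
  · have hNcen : N ≤ cen U V := hD ▸ inf_le_left
    suffices h : ⁅U, (⊤ : Subgroup Z)⁆ ≤ V from
      (Subgroup.commutator_mono le_rfl le_top).trans h
    by_contra hc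
    have h1 : ⁅U, (⊤ : Subgroup Z)⁆ ⊔ V = U := chief_sup_eq hch (Subgroup.commutator_le_left U ⊤) hc
    let mk : Z →* Z ⧸ V := QuotientGroup.mk' V
    have hmk : ∀ x : Z, mk x = 1 ↔ x ∈ V := fun x => QuotientGroup.eq_one_iff x
    have key : ∀ X : Subgroup Z, X ≤ V ↔ X.map mk = ⊥ := by
      intro X
      rw [Subgroup.map_eq_bot_iff, QuotientGroup.ker_mk']
    have h2 : ⁅U.map mk, (⊤ : Subgroup Z).map mk⁆ = U.map mk := by
      conv_rhs => rw [← h1]
      rw [Subgroup.map_sup, (key V).mp le_rfl, sup_bot_eq, Subgroup.map_commutator]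
    have hUbn : (U.map mk).Normal := hUn.map mk (QuotientGroup.mk'_surjective V)
    have h3 := commutator_lt_of_isPGroup (hUp.map mk) (T.2.map mk)
      (le_normalizer_of_normal _ _) (by
        intro e
        exact hch.1.not_ge ((key U).mpr e))
    apply h3.not_ge
    refine h2.symm.le.trans ?_
    rw [Subgroup.commutator_le]
    rintro _ ⟨u, hu, rfl⟩ _ ⟨z, -, rfl⟩
    have hz : z ∈ (T : Subgroup Z) ⊔ N := hsup ▸ Subgroup.mem_top z
    obtain ⟨t, ht, n, hn, rfl⟩ := Subgroup.mem_sup_of_normal_right.mp hz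
    have h4 := (mem_cen_iff U V n).mp (hNcen hn) u⁻¹ (U.inv_mem hu)
    rw [← hmk] at h4
    simp only [map_mul, map_inv, inv_inv] at h4
    have h5 : ⁅mk u, mk (t * n)⁆ = ⁅mk u, mk t⁆ := by
      rw [commutatorElement_def, commutatorElement_def, map_mul]
      calc mk u * (mk t * mk n) * (mk u)⁻¹ * (mk t * mk n)⁻¹
          = mk u * mk t * (mk n * (mk u)⁻¹ * (mk n)⁻¹ * mk u) * (mk u)⁻¹ * (mk t)⁻¹ := by group
        _ = mk u * mk t * (mk u)⁻¹ * (mk t)⁻¹ := by rw [h4, mul_one]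
    rw [h5]
    exact Subgroup.commutator_mem_commutator (Subgroup.mem_map_of_mem mk hu)
      (Subgroup.mem_map_of_mem mk ht)

end Cfsg.Agent.Lib.Helper5
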