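import Cfsg.Agent.Lib.Helper5.PSolv

set_option autoImplicit false

namespace Cfsg.Agent.Lib.Helper5

open Cfsg

variable {G : Type*} [Group G] {p : ℕ}

theorem upperPSeries_zero : (upperPSeries p G 0).1 = ⊥ := by
  rw [upperPSeries]

theorem upperPSeries_succ_even (n : ℕ) (h : Even n) :
    (upperPSeries p G (n + 1)).1 =
      (pPrimeCore p (G ⧸ (upperPSeries p G n).1)).comap (QuotientGroup.mk' _) := by
  rw [upperPSeries, if_pos h]

theorem upperPSeries_succ_odd (n : ℕ) (h : ¬ Even n) :
    (upperPSeries p G (n + 1)).1 =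
      (pCore p (G ⧸ (upperPSeries p G n).1)).comap (QuotientGroup.mk' _) := by
  rw [upperPSeries, if_neg h]

theorem pPrimeCore_quot_eq_bot_of_eq [Finite G] (M : Subgroup G) [M.Normal] (D : Subgroup G)
    [D.Normal] (h : D = (pPrimeCore p (G ⧸ M)).comap (QuotientGroup.mk' M)) :
    pPrimeCore p (G ⧸ D) = ⊥ := by
  subst h
  exact pPrimeCore_quot_comap M

end Cfsg.Agent.Lib.Helper5
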