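import Cfsg.Agent.Lib.Helper5.UpperSeries
import Cfsg.Agent.Lib.Helper5.PConstrained

set_option autoImplicit false

namespace Cfsg.Agent.Lib.Helper5

open Cfsg

variable {G : Type*} [Group G] {p : ℕ}

theorem comap_pCore_quot {H : Type*} [Group H] (f : G →* H) (hf : Function.Surjective f)
    (V : Subgroup H) [V.Normal] :
    (pCore p (G ⧸ V.comap f)).comap (QuotientGroup.mk' (V.comap f)) =
      ((pCore p (H ⧸ V)).comap (QuotientGroup.mk' V)).comap f := by
  let g : G →* H ⧸ V := (QuotientGroup.mk' V).comp f
  have hg : Function.Surjective g := (QuotientGroup.mk'_surjective _).comp hf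
  have hker : g.ker = V.comap f := by rw [← MonoidHom.comap_ker, QuotientGroup.ker_mk']
  let e : G ⧸ V.comap f ≃* H ⧸ V := (QuotientGroup.quotientMulEquivOfEq hker.symm).trans
    (QuotientGroup.quotientKerEquivOfSurjective g hg)
  have he : ∀ x, e (QuotientGroup.mk' (V.comap f) x) = QuotientGroup.mk' V (f x) := fun x => rfl
  ext x
  simp only [Subgroup.mem_comap]
  rw [← he, ← pCore_map_equiv e]
  exact (Subgroup.mem_map_iff_mem e.injective).symm

theorem comap_pPrimeCore_quot {H : Type*} [Group H] (f : G →* H) (hf : Function.Surjective f)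
    (V : Subgroup H) [V.Normal] :
    (pPrimeCore p (G ⧸ V.comap f)).comap (QuotientGroup.mk' (V.comap f)) =
      ((pPrimeCore p (H ⧸ V)).comap (QuotientGroup.mk' V)).comap f := by
  let g : G →* H ⧸ V := (QuotientGroup.mk' V).comp f
  have hg : Function.Surjective g := (QuotientGroup.mk'_surjective _).comp hf
  have hker : g.ker = V.comap f := by rw [← MonoidHom.comap_ker, QuotientGroup.ker_mk']
  let e : G ⧸ V.comap f ≃* H ⧸ V := (QuotientGroup.quotientMulEquivOfEq hker.symm).trans
    (QuotientGroup.quotientKerEquivOfSurjective g hg)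
  have he : ∀ x, e (QuotientGroup.mk' (V.comap f) x) = QuotientGroup.mk' V (f x) := fun x => rfl
  ext x
  simp only [Subgroup.mem_comap]
  rw [← he, ← pPrimeCore_map_equiv e]
  exact (Subgroup.mem_map_iff_mem e.injective).symm

theorem comap_pCore_congr (D D' : Subgroup G) [D.Normal] [D'.Normal] (h : D = D') :
    (pCore p (G ⧸ D)).comap (QuotientGroup.mk' D) =
      (pCore p (G ⧸ D')).comap (QuotientGroup.mk' D') := by
  subst h; rfl

theorem comap_pPrimeCore_congr (D D' : Subgroup G) [D.Normal] [D'.Normal] (h : D = D') :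
    (pPrimeCore p (G ⧸ D)).comap (QuotientGroup.mk' D) =
      (pPrimeCore p (G ⧸ D')).comap (QuotientGroup.mk' D') := by
  subst h; rfl

theorem upperPSeries_shift (n : ℕ) :
    (upperPSeries p G (n + 2)).1 =
      ((upperPSeries p (G ⧸ (upperPSeries p G 2).1) n).1).comap
        (QuotientGroup.mk' (upperPSeries p G 2).1) := by
  induction n with
  | zero =>
    rw [upperPSeries_zero, MonoidHom.comap_bot, QuotientGroup.ker_mk']
  | succ n ih =>
    have hs := QuotientGroup.mk'_surjective (upperPSeries p G 2).1
    by_cases h : Even n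
    · rw [upperPSeries_succ_even n h, ← comap_pPrimeCore_quot _ hs,
        show n + 1 + 2 = (n + 2) + 1 from rfl,
        upperPSeries_succ_even (n + 2) (by simpa [Nat.even_add] using h)]
      exact comap_pPrimeCore_congr _ _ ih
    · rw [upperPSeries_succ_odd n h, ← comap_pCore_quot _ hs,
        show n + 1 + 2 = (n + 2) + 1 from rfl,
        upperPSeries_succ_odd (n + 2) (by simpa [Nat.even_add] using h)]
      exact comap_pCore_congr _ _ ih

end Cfsg.Agent.Lib.Helper5
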